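import Cfsg.Agent.H901.OP.Lift

/-!
# S3499, `Sp₆(2)` in `Ω₈⁺(q)`: the case of anticommuting lifts (helper901)
-/

set_option autoImplicit false
set_option linter.unusedSectionVars false

namespace Cfsg.Agent.H901.OP

open Cfsg Cfsg.Geo Matrix Cfsg.Agent.SporRec.TwoSp6.Sp Cfsg.Agent.H284 Cfsg.Agent.H419.EP Cfsg.Agent.H84.EP
open scoped MatrixGroups

section lift
variable {F : Type*} [Field F] {ι : Type} [Fintype ι] [DecidableEq ι] {Qf : (ι → F) → F} {Q : Type*} [Group Q]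
  {m : Model Q (omegaGL Qf)} {ρ : S →* Q}

theorem lf_neg_of {g : GL ι F} {s : S} (hg : Lf m ρ g s) (hn : -g ∈ omegaGL Qf) : Lf m ρ (-g) s := by
  obtain ⟨hg, eg⟩ := hg
  refine ⟨hn, ?_⟩
  rw [← eg, m.π_eq_iff]
  refine ⟨-1, neg_one_scalar, ?_⟩
  show -g = g * -1
  rw [mul_neg, mul_one]

theorem one_ne_neg (h2 : (2 : F) ≠ 0) (hι : 0 < Fintype.card ι) : (1 : GL ι F) ≠ -1 := by
  intro h
  have : Nonempty ι := Fintype.card_pos_iff.1 hι
  obtain ⟨i⟩ := this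
  have h3 := congrArg (fun g : GL ι F => g.1 i i) h
  have h4 : (1 : F) = -1 := by simpa using h3
  exact neg_one_ne h2 h4.symm

theorem conj_of_lf {x g h : GL ι F} {s t : S} (hx : x ∈ omegaGL Qf) (hg : Lf m ρ g s) (hh : Lf m ρ h t)
    (e : x * g * x⁻¹ = h) : m.π ⟨x, hx⟩ * ρ s * (m.π ⟨x, hx⟩)⁻¹ = ρ t := by
  obtain ⟨hg, eg⟩ := hg
  obtain ⟨hh, eh⟩ := hh
  rw [← eg, ← eh, ← map_inv, ← map_mul, ← map_mul]
  congr 1
  exact Subtype.ext e

theorem anti_all (hQ : IsNondegenerateQuadraticForm Qf) (hι : 0 < Fintype.card ι) {T : Fin 7 → GL ι F}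
    (hT : ∀ i, Lf m ρ (T i) (tr (pt i))) (hnc : T 0 * T 1 ≠ T 1 * T 0) {i j : Fin 7} (hij : i ≠ j) :
    T i * T j = -(T j * T i) := by
  have h01 : (1 : Fin 7) ≠ 0 := by decide
  refine (lf_comm hQ hι (hT i) (hT j) (tr_comm (om_pt i j))).resolve_left fun h => hnc ?_
  exact comm_const hQ hι (pt_ne i) (pt_ne j) (fun h => hij (pt_inj h).symm) (om_pt i j) (pt_ne 0) (pt_ne 1)
    (fun h => h01 (pt_inj h)) (om_pt 0 1) (hT i) (hT j) (hT 0) (hT 1) h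

theorem sq_anti_all (h2 : (2 : F) ≠ 0) (hQ : IsNondegenerateQuadraticForm Qf) (hι : 0 < Fintype.card ι)
    {T : Fin 7 → GL ι F} (hT : ∀ i, Lf m ρ (T i) (tr (pt i))) (hnc : T 0 * T 1 ≠ T 1 * T 0) (i : Fin 7) :
    T i * T i = -1 := by
  refine (lf_sq hQ hι (hT i)).resolve_left fun h => ?_
  have hs : ∀ j, T j * T j = 1 := fun j => by rw [sq_const hQ hι (pt_ne i) (pt_ne j) (hT i) (hT j), h]
  have ha : ∀ {i j : Fin 7}, i ≠ j → T i * T j = -(T j * T i) := anti_all hQ hι hT hnc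
  have h3 := sq_seven (hs 6) (hs 2) (hs 4) (hs 5) (hs 0) (hs 1) (hs 3) (ha (by decide)) (ha (by decide))
    (ha (by decide)) (ha (by decide)) (ha (by decide)) (ha (by decide)) (ha (by decide)) (ha (by decide))
    (ha (by decide)) (ha (by decide)) (ha (by decide)) (ha (by decide)) (ha (by decide)) (ha (by decide))
    (ha (by decide)) (ha (by decide)) (ha (by decide)) (ha (by decide)) (ha (by decide)) (ha (by decide))
    (ha (by decide))
  have h4 := lf_one_pm hQ hι (lf_fano hT)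
  have h5 : T 6 * (T 2 * (T 4 * (T 5 * (T 0 * (T 1 * T 3))))) = T 6 * T 2 * T 4 * T 5 * T 0 * T 1 * T 3 := by
    simp only [mul_assoc]
  rw [h5] at h4
  apply one_ne_neg (ι := ι) h2 hι
  rcases h4 with h4 | h4
  · rw [h4, one_mul] at h3
    exact h3
  · rw [h4, neg_mul_neg, one_mul] at h3
    exact h3

/-- **the anticommuting case** -/
theorem exists_x_anti [Finite F] (h2 : (2 : F) ≠ 0) (hι : 5 ≤ Fintype.card ι) (hQ : IsNondegenerateQuadraticForm Qf)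
    {T : Fin 7 → GL ι F} (hT : ∀ i, Lf m ρ (T i) (tr (pt i))) (hnc : T 0 * T 1 ≠ T 1 * T 0) :
    ∃ x : Q, x * ρ (tr (pt 1)) * x⁻¹ = ρ (tr (pt 0)) ∧ x * ρ (tr (pt 0)) * x⁻¹ = ρ (tr (pt 1)) * ρ (tr (pt 0)) ∧
      ∀ i, i ≠ 0 → i ≠ 1 → x * ρ (tr (pt i)) * x⁻¹ = ρ (tr (pt i)) * ρ (tr (pt 0)) := by
  have hι' : 0 < Fintype.card ι := by omega
  have hs := sq_anti_all h2 hQ hι' hT hnc
  have ha : ∀ {i j : Fin 7}, i ≠ j → T i * T j = -(T j * T i) := anti_all hQ hι' hT hnc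
  obtain ⟨x, hx, h3, h4, h5⟩ := exists_quat h2 hι hQ (iso_of_omega (hT 1).1) (iso_of_omega (hT 0).1) (hs 1) (hs 0)
    (ha (by decide))
  refine ⟨m.π ⟨x, hx⟩, conj_of_lf hx (hT 1) (hT 0) h3, ?_, ?_⟩
  · rw [← map_mul]
    exact conj_of_lf hx (hT 0) (lf_mul (hT 1) (hT 0)) h4
  · intro i hi0 hi1
    rw [← map_mul]
    have h6 := h5 (T i) (ha hi1.symm) (ha hi0.symm)
    refine conj_of_lf hx (hT i) (lf_neg_of (lf_mul (hT i) (hT 0)) ?_) h6
    rw [← h6]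
    exact mul_mem (mul_mem hx (hT i).1) (inv_mem hx)

end lift

end Cfsg.Agent.H901.OP
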