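import Cfsg.Agent.H901.OP.Wt
import Cfsg.Agent.H84.EP.SpB

/-!
# S3499, `Sp₆(2)` in `Ω₈⁺(q)`: the commuting case is impossible (helper901)
-/

set_option autoImplicit false
set_option linter.unusedSectionVars false

namespace Cfsg.Agent.H901.OP

open Cfsg Cfsg.Geo Matrix Cfsg.Agent.SporRec.TwoSp6.Sp Cfsg.Agent.H284 Cfsg.Agent.H419.EP Cfsg.Agent.H84.EP
open scoped MatrixGroups

section lift
variable {F : Type*} [Field F] {ι : Type} [Fintype ι] [DecidableEq ι] {Qf : (ι → F) → F} {Q : Type*} [Group Q]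
  {m : Model Q (omegaGL Qf)} {ρ : S →* Q} {T : Fin 7 → GL ι F} {Y : GL ι F}

/-- the weights of a system -/
structure Frm (m : Model Q (omegaGL Qf)) (ρ : S →* Q) (T : Fin 7 → GL ι F) (Y : GL ι F) (ε : Fin 7 → Bool)
    (U : ℕ → (ι → F)) (z : ι → F) : Prop where
  sys : Sys m ρ T Y
  e0 : ε 0 = true
  par : par ε = false
  ne : ∀ n, U n ≠ 0
  wt : ∀ n, WT T (ε ∘ yp^[n]) (U n)
  zne : z ≠ 0
  zwt : WT T (fun _ => false) z
  perp : ∀ n, QuadraticMap.polar Qf z (U n) = 0
  all : ∀ v, (∀ j : Fin 7, QuadraticMap.polar Qf v (U j) = 0) → ∃ b : F, v = b • z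

theorem T_ne (hρ : Function.Injective ρ) (h : Sys m ρ T Y) (i : Fin 7) : T i ≠ 1 := by
  intro he
  have h1 := h.lf i
  rw [he] at h1
  exact tr_ne i (lf_inj hρ h1 lf_one)

theorem exists_frm (h2 : (2 : F) ≠ 0) (hQ : IsNondegenerateQuadraticForm Qf) (hι : Fintype.card ι = 8)
    (hρ : Function.Injective ρ) (h : Sys m ρ T Y) : ∃ ε U z, Frm m ρ T Y ε U z := by
  have hiso : ∀ i, T i ∈ isometryGroup F Qf := fun i => iso_of_omega (h.lf i).1
  have hY : Y ∈ isometryGroup F Qf := iso_of_omega h.lfY.1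
  -- a joint eigenvector
  obtain ⟨v0, hv0⟩ : ∃ v0, av (T 0) v0 ≠ v0 := by
    by_contra hcon
    push Not at hcon
    apply T_ne hρ h 0
    apply av_ext
    intro v
    rw [hcon, av_one]
  have hu : av (T 0) (av (T 0) v0 - v0) = sg F true • (av (T 0) v0 - v0) := by
    rw [av_sub, ← av_mul, h.sq, av_one]
    simp only [sg, if_true]
    module
  have hu0 : av (T 0) v0 - v0 ∉ (⊥ : Submodule F (ι → F)) := by
    rw [Submodule.mem_bot]
    exact sub_ne_zero.2 hv0
  obtain ⟨w, hw, ⟨ε, hε⟩, hw'⟩ := exists_joint h2 h.comm h.sq ⊥ hu0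
  rw [Submodule.mem_bot] at hw
  have hε0 : ε 0 = true := by
    have h3 := hw' 0 true hu
    rw [hε 0] at h3
    have h4 : (sg F (ε 0) - sg F true) • w = 0 := by rw [sub_smul, h3, sub_self]
    rcases smul_eq_zero.1 h4 with h5 | h5
    · exact sg_inj h2 (sub_eq_zero.1 h5)
    · exact absurd h5 hw
  have hpar := wt_par' h2 h.prod hw hε
  let U : ℕ → (ι → F) := fun n => av (Y⁻¹ ^ n) w
  have hU : ∀ n, U n ≠ 0 := fun n => av_ne _ hw
  have hUs : ∀ n, U (n + 1) = av Y⁻¹ (U n) := by
    intro n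
    show av (Y⁻¹ ^ (n + 1)) w = _
    rw [pow_succ', av_mul]
  have hU7 : U 7 = U 0 := by
    show av (Y⁻¹ ^ 7) w = av (Y⁻¹ ^ 0) w
    rw [inv_pow, h.seven, inv_one, pow_zero]
  have hUw : ∀ n, WT T (ε ∘ yp^[n]) (U n) := by
    intro n
    induction n with
    | zero =>
      have : U 0 = w := by show av (Y⁻¹ ^ 0) w = w; rw [pow_zero, av_one]
      rw [this]
      exact hε
    | succ n ih =>
      intro i
      rw [hUs, ← av_mul]
      have h3 : T i * Y⁻¹ = Y⁻¹ * T (yp i) := by rw [← h.conj i]; group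
      rw [h3, av_mul, ih (yp i), av_smul]
      rfl
  have hli : LinearIndependent F (fun j : Fin 7 => U j) := li_of_WT h2 (fun j => hU j) (fun j => hUw j) (by
    intro j j' hj
    exact comb1 ε hε0 hpar j j' fun i => congrFun hj i)
  obtain ⟨z, hz, hz1, hz2⟩ := exists_perp hQ hι hli
  have hzn : ∀ n, QuadraticMap.polar Qf z (U n) = 0 := by
    intro n
    have h3 : ∀ n, U (n + 7) = U n := by
      intro n
      induction n with
      | zero => rw [zero_add]; exact hU7
      | succ n ih => rw [show n + 1 + 7 = (n + 7) + 1 by ring, hUs, ih, ← hUs]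
    have h4 : ∀ q r, U (r + 7 * q) = U r := by
      intro q r
      induction q with
      | zero => rfl
      | succ q ih => rw [show r + 7 * (q + 1) = (r + 7 * q) + 7 by ring, h3, ih]
    rw [← Nat.mod_add_div n 7, h4]
    exact hz1 ⟨n % 7, Nat.mod_lt _ (by norm_num)⟩
  -- `z` is a joint eigenvector
  have hTz : ∀ i, ∃ b : Bool, av (T i) z = sg F b • z := by
    intro i
    obtain ⟨b, hb⟩ := hz2 (av (T i) z) (by
      intro j
      have h3 := polar_av (hiso i) (av (T i) z) (U j)
      rw [← av_mul, h.sq, av_one, hUw j i, hQ.polar_bilinear.smul_right, hz1, mul_zero] at h3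
      exact h3.symm)
    have h3 : (b * b - 1) • z = 0 := by
      have h4 : av (T i) (av (T i) z) = z := by rw [← av_mul, h.sq, av_one]
      rw [hb, av_smul, hb, smul_smul] at h4
      rw [sub_smul, h4, one_smul, sub_self]
    have h4 : b * b = 1 := sub_eq_zero.1 ((smul_eq_zero.1 h3).resolve_right hz)
    rcases mul_self_eq_one_iff.1 h4 with h5 | h5
    · exact ⟨false, by rw [hb, h5]; simp [sg]⟩
    · exact ⟨true, by rw [hb, h5]; simp [sg]⟩
  choose μ hμ using hTz
  obtain ⟨c, hc⟩ := hz2 (av Y z) (by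
    intro j
    have h3 := polar_av (inv_mem hY) (av Y z) (U j)
    rw [av_inv_av, ← hUs, hzn] at h3
    exact h3.symm)
  have hc0 : c ≠ 0 := by
    rintro rfl
    rw [zero_smul] at hc
    exact av_ne Y hz hc
  have hμy : ∀ i, μ (yp i) = μ i := by
    intro i
    have h3 : av (T (yp i)) (av Y z) = av Y (av (T i) z) := by
      rw [← av_mul, ← av_mul, ← h.conj i]
      congr 1
      group
    rw [hc, av_smul, hμ, hμ, av_smul, hc, smul_smul, smul_smul] at h3
    have h4 : (c * sg F (μ (yp i)) - sg F (μ i) * c) • z = 0 := by rw [sub_smul, h3, sub_self]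
    have h5 := (smul_eq_zero.1 h4).resolve_right hz
    apply sg_inj h2
    have h6 : c * (sg F (μ (yp i)) - sg F (μ i)) = 0 := by linear_combination h5
    exact sub_eq_zero.1 ((mul_eq_zero.1 h6).resolve_left hc0)
  have hμ0 := par_const hμy (wt_par' h2 h.prod hz hμ)
  refine ⟨ε, U, z, h, hε0, hpar, hU, hUw, hz, ?_, hzn, hz2⟩
  intro i
  rw [hμ, hμ0]

variable {ε : Fin 7 → Bool} {U : ℕ → (ι → F)} {z : ι → F}

/-- all weights are shifts of `ε` or trivial -/
theorem Frm.inW (h2 : (2 : F) ≠ 0) (hQ : IsNondegenerateQuadraticForm Qf) (h : Frm m ρ T Y ε U z) {μ : Fin 7 → Bool}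
    {w : ι → F} (hw : w ≠ 0) (hμ : WT T μ w) : inW ε μ := by
  have hiso : ∀ i, T i ∈ isometryGroup F Qf := fun i => iso_of_omega (h.sys.lf i).1
  by_cases h1 : ∀ j : Fin 7, QuadraticMap.polar Qf w (U j) = 0
  · left
    obtain ⟨b, hb⟩ := h.all w h1
    intro i
    apply sg_inj h2
    have h3 := hμ i
    rw [hb, av_smul, h.zwt i, smul_smul, smul_smul] at h3
    have hb0 : b ≠ 0 := by
      rintro rfl
      rw [zero_smul] at hb
      exact hw hb
    have h4 : (b * sg F false - sg F (μ i) * b) • z = 0 := by rw [sub_smul, h3, sub_self]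
    have h5 := (smul_eq_zero.1 h4).resolve_right h.zne
    have h6 : b * (sg F (μ i) - sg F false) = 0 := by linear_combination -h5
    exact sub_eq_zero.1 ((mul_eq_zero.1 h6).resolve_left hb0)
  · right
    push Not at h1
    obtain ⟨j, hj⟩ := h1
    refine ⟨j, fun i => ?_⟩
    have := polar_wt hQ hiso hμ (h.wt j) h2 hj
    exact congrFun this i

/-- the symmetries -/
theorem Frm.cw (h2 : (2 : F) ≠ 0) (hQ : IsNondegenerateQuadraticForm Qf) (hι : 0 < Fintype.card ι)
    (h : Frm m ρ T Y ε U z) (k : Fin 3) : CW ε k (fun _ => false) ∨ ∃ j0 : Fin 7, CW ε k (fun i => ε (yp^[j0.val] i)) := by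
  obtain ⟨X, hX⟩ := lf_exists (m := m) (ρ := ρ) (ga k)
  have h1 : ∀ i, ∃ b : Bool, ∀ v, av (T (gp k i)) (av X v) = sg F b • av X (av (T i) v) := by
    intro i
    rcases lf_conj_pm hQ hι hX (h.sys.lf i) (h.sys.lf (gp k i)) (act_ga k i) with h3 | h3
    · refine ⟨false, fun v => ?_⟩
      rw [h3, ← av_mul, ← av_mul, inv_mul_cancel_right]
      simp [sg]
    · refine ⟨true, fun v => ?_⟩
      have h4 : ∀ g : GL ι F, ∀ v, av (-g) v = -av g v := by
        intro g v
        unfold av
        rw [Units.val_neg, Matrix.neg_mulVec]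
      rw [h3, h4, ← av_mul, ← av_mul, inv_mul_cancel_right]
      simp [sg]
  choose lam hlam using h1
  have h3 : ∀ {μ : Fin 7 → Bool} {w : ι → F}, WT T μ w → WT T (fun i => xor (lam (gp k i)) (μ (gp k i))) (av X w) := by
    intro μ w hw i
    have h4 := hlam (gp k i) w
    rw [gp_inv] at h4
    rw [h4, hw, av_smul, smul_smul, sg_xor]
  obtain ⟨ν, hν⟩ : ∃ ν : Fin 7 → Bool, ν = fun i => lam (gp k i) := ⟨_, rfl⟩
  have h4 : CW ε k ν := by
    intro j
    have h5 := h.inW h2 hQ (av_ne X (h.ne j)) (h3 (h.wt j))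
    rw [hν]
    exact h5
  have h5 := h.inW h2 hQ (av_ne X h.zne) (h3 h.zwt)
  have h6 : (fun i => xor (lam (gp k i)) false) = ν := by
    rw [hν]
    funext i
    simp
  rw [h6] at h5
  rcases h5 with h5 | ⟨j0, h5⟩
  · left
    have : ν = fun _ => false := funext h5
    rwa [this] at h4
  · right
    refine ⟨j0, ?_⟩
    have : ν = fun i => ε (yp^[j0.val] i) := funext h5
    rwa [this] at h4

/-- the basis -/
theorem Frm.exists_basis (h2 : (2 : F) ≠ 0) (hι : Fintype.card ι = 8) (h : Frm m ρ T Y ε U z) :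
    ∃ b : Module.Basis (Option (Fin 7)) F (ι → F), b none = z ∧ ∀ j : Fin 7, b (some j) = U j := by
  let u : Option (Fin 7) → (ι → F) := fun o => o.elim z (fun j => U j)
  let μ : Option (Fin 7) → Fin 7 → Bool := fun o => o.elim (fun _ => false) (fun j => ε ∘ yp^[j.val])
  have hne : ∀ j : Fin 7, (fun _ => false) ≠ ε ∘ yp^[j.val] := by
    intro j hj
    obtain ⟨n, hn⟩ : ∃ i, yp^[j.val] i = 0 := by
      have : ∀ j : Fin 7, ∃ i, yp^[j.val] i = 0 := by decide +kernel
      exact this j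
    have h1 := congrFun hj n
    simp only [Function.comp_apply, hn, h.e0] at h1
    exact absurd h1 (by decide)
  have hli : LinearIndependent F u := by
    refine li_of_WT (T := T) (μ := μ) h2 ?_ ?_ ?_
    · rintro (_ | j)
      · exact h.zne
      · exact h.ne j
    · rintro (_ | j)
      · exact h.zwt
      · exact h.wt j
    · rintro (_ | j) (_ | j') hj
      · rfl
      · exact absurd hj (hne j')
      · exact absurd hj.symm (hne j)
      · congr 1
        exact comb1 ε h.e0 h.par j j' fun i => congrFun hj i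
  let b := basisOfLinearIndependentOfCardEqFinrank hli (by
    rw [Module.finrank_fintype_fun_eq_card, hι]; rfl)
  refine ⟨b, ?_, ?_⟩
  · rw [coe_basisOfLinearIndependentOfCardEqFinrank]
    rfl
  · intro j
    rw [coe_basisOfLinearIndependentOfCardEqFinrank]
    rfl

/-- the type of the weights -/
theorem Frm.point (h2 : (2 : F) ≠ 0) (hQ : IsNondegenerateQuadraticForm Qf) (hι : Fintype.card ι = 8)
    (hρ : Function.Injective ρ) (h : Frm m ρ T Y ε U z) : ∃ i0, ∀ i, ε i = !decide (i = i0) := by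
  refine (comb6 ε h.e0 h.par (h.cw h2 hQ (by omega))).resolve_right fun hl => ?_
  obtain ⟨b, hb0, hb⟩ := h.exists_basis h2 hι
  have h1 : T 0 * (T 1 * T 2) = 1 := by
    apply av_ext
    have h3 : Matrix.toLin' (T 0 * (T 1 * T 2) : GL ι F).1 = LinearMap.id := by
      apply b.ext
      rintro (_ | j)
      · rw [hb0, Matrix.toLin'_apply]
        show av (T 0 * (T 1 * T 2)) z = z
        rw [av_mul, av_mul, h.zwt, av_smul, h.zwt, av_smul, av_smul, h.zwt]
        simp [sg]
      · rw [hb, Matrix.toLin'_apply]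
        show av (T 0 * (T 1 * T 2)) (U j) = U j
        rw [av_mul, av_mul, h.wt, av_smul, h.wt, av_smul, av_smul, h.wt, smul_smul, smul_smul]
        have h4 := hl j
        have h5 : sg F ((ε ∘ yp^[j.val]) 2) * (sg F ((ε ∘ yp^[j.val]) 1)) * sg F ((ε ∘ yp^[j.val]) 0) = 1 := by
          have h6 : sg F (xor (ε (yp^[j.val] 0)) (xor (ε (yp^[j.val] 1)) (ε (yp^[j.val] 2)))) = 1 := by
            rw [h4]; simp [sg]
          rw [sg_xor, sg_xor] at h6
          rw [← h6]
          simp only [Function.comp_apply]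
          ring
        rw [h5, one_smul]
    intro v
    have h4 := congrArg (fun f : (ι → F) →ₗ[F] (ι → F) => f v) h3
    simp only [Matrix.toLin'_apply, LinearMap.id_apply] at h4
    rw [av_one]
    exact h4
  have h3 := lf_mul (h.sys.lf 0) (lf_mul (h.sys.lf 1) (h.sys.lf 2))
  rw [h1] at h3
  exact tr_line (lf_inj hρ h3 lf_one)

end lift

end Cfsg.Agent.H901.OP
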