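import Cfsg.Agent.H901.OP.Comm

/-!
# S3499, `Sp₆(2)` in `Ω₈⁺(q)`: the commuting case is impossible for irreducible groups (helper901)
-/

set_option autoImplicit false
set_option linter.unusedSectionVars false

namespace Cfsg.Agent.H901.OP

open Cfsg Cfsg.Geo Matrix Cfsg.Agent.SporRec.TwoSp6.Sp Cfsg.Agent.H284 Cfsg.Agent.H419.EP Cfsg.Agent.H84.EP
open scoped MatrixGroups

theorem comb7 : ∀ i0 i : Fin 7, (Finset.univ.filter fun j : Fin 7 => yp^[j.val] i = i0).card = 1 := by decide +kernel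

theorem comb8 : ∀ i0 a b : Fin 7, a ≠ b → ∀ j : Fin 7, yp^[j.val] a ≠ i0 ∨ yp^[j.val] b ≠ i0 := by decide +kernel

/-- two orthogonal points of `W` -/
theorem exists_two (u : V) : ∃ a b : Fin 7, a ≠ b ∧ om (pt a) u = 0 ∧ om (pt b) u = 0 := by
  obtain ⟨c, hc, rfl⟩ := exists_enc u
  have key : ∀ c < 64, ∃ a b : Fin 7, a ≠ b ∧ fN (a.val + 1) c = false ∧ fN (b.val + 1) c = false := by decide +kernel
  obtain ⟨a, b, hab, h1, h2⟩ := key c hc
  refine ⟨a, b, hab, ?_, ?_⟩
  · unfold pt
    rw [om_enc, h1]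
    rfl
  · unfold pt
    rw [om_enc, h2]
    rfl

section lift
variable {F : Type*} [Field F] {ι : Type} [Fintype ι] [DecidableEq ι] {Qf : (ι → F) → F} {Q : Type*} [Group Q]
  {m : Model Q (omegaGL Qf)} {ρ : S →* Q} {T : Fin 7 → GL ι F} {Y : GL ι F} {ε : Fin 7 → Bool} {U : ℕ → (ι → F)}
  {z : ι → F}

theorem av_neg (g : GL ι F) (v : ι → F) : av (-g) v = -av g v := by
  unfold av
  rw [Units.val_neg, Matrix.neg_mulVec]

/-- the trace of `T i` is `-4` -/
theorem Frm.trace (h2 : (2 : F) ≠ 0) (hι : Fintype.card ι = 8) (h : Frm m ρ T Y ε U z) {i0 : Fin 7}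
    (hi0 : ∀ i, ε i = !decide (i = i0)) (i : Fin 7) : Matrix.trace (T i).1 = -4 := by
  obtain ⟨b, hb0, hb⟩ := h.exists_basis h2 hι
  have h1 : Matrix.trace (T i).1 = LinearMap.trace F (ι → F) (Matrix.toLin' (T i).1) := by
    rw [LinearMap.trace_eq_matrix_trace F (Pi.basisFun F ι), LinearMap.toMatrix_eq_toMatrix',
      LinearMap.toMatrix'_toLin']
  rw [h1, LinearMap.trace_eq_matrix_trace F b]
  unfold Matrix.trace
  have h3 : ∀ o : Option (Fin 7), Matrix.diag (LinearMap.toMatrix b b (Matrix.toLin' (T i).1)) o =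
      o.elim (1 : F) (fun j => if yp^[j.val] i = i0 then 1 else -1) := by
    rintro (_ | j)
    · rw [Matrix.diag_apply, LinearMap.toMatrix_apply, Matrix.toLin'_apply, hb0]
      have h4 : (T i).1 *ᵥ z = z := by
        have := h.zwt i
        simp only [sg, Bool.false_eq_true, if_false, one_smul] at this
        exact this
      rw [h4, ← hb0, Module.Basis.repr_self, Finsupp.single_eq_same]
      rfl
    · rw [Matrix.diag_apply, LinearMap.toMatrix_apply, Matrix.toLin'_apply, hb]
      have h4 : (T i).1 *ᵥ (U j) = (if yp^[j.val] i = i0 then (1 : F) else -1) • U j := by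
        have := h.wt j i
        rw [Function.comp_apply, hi0] at this
        refine Eq.trans this ?_
        congr 1
        by_cases h5 : yp^[j.val] i = i0 <;> simp [h5, sg]
      rw [h4, ← hb, map_smul, Module.Basis.repr_self, Finsupp.smul_single, Finsupp.single_eq_same]
      simp
  rw [Finset.sum_congr rfl fun o _ => h3 o, Fintype.sum_option]
  simp only [Option.elim]
  rw [Finset.sum_ite, Finset.sum_const, Finset.sum_const, comb7]
  have h5 : (Finset.univ.filter fun j : Fin 7 => ¬ yp^[j.val] i = i0).card = 6 := by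
    have h6 := Finset.card_filter_add_card_filter_not (s := (Finset.univ : Finset (Fin 7)))
      (p := fun j : Fin 7 => yp^[j.val] i = i0)
    rw [comb7, Finset.card_univ, Fintype.card_fin] at h6
    omega
  rw [h5]
  simp
  norm_num

/-- the signs in the conjugation are `+` -/
theorem Frm.conj (h2 : (2 : F) ≠ 0) (hQ : IsNondegenerateQuadraticForm Qf) (hι : Fintype.card ι = 8)
    (h : Frm m ρ T Y ε U z) {i0 : Fin 7} (hi0 : ∀ i, ε i = !decide (i = i0)) {X : GL ι F} {s : S} (hX : Lf m ρ X s)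
    {i j : Fin 7} (hs : act s (pt i) = pt j) : T j = X * T i * X⁻¹ := by
  refine (lf_conj_pm hQ (by omega) hX (h.sys.lf i) (h.sys.lf j) hs).resolve_right fun h3 => ?_
  have h4 := h.trace h2 hι hi0 j
  rw [h3, Units.val_neg, Matrix.trace_neg, Units.val_mul, Units.val_mul, Matrix.trace_mul_comm, ← Matrix.mul_assoc,
    ← Units.val_mul, inv_mul_cancel, Units.val_one, Matrix.one_mul, h.trace h2 hι hi0 i] at h4
  have h5 : (2 : F) ^ 3 = 0 := by linear_combination h4
  exact h2 (pow_eq_zero_iff (by norm_num) |>.1 h5)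

/-- the vectors fixed by two of the `T i` -/
theorem Frm.fix (h2 : (2 : F) ≠ 0) (hQ : IsNondegenerateQuadraticForm Qf)
    (h : Frm m ρ T Y ε U z) {i0 : Fin 7} (hi0 : ∀ i, ε i = !decide (i = i0)) {a b : Fin 7} (hab : a ≠ b) {v : ι → F}
    (ha : av (T a) v = v) (hb : av (T b) v = v) : ∃ c : F, v = c • z := by
  have hiso : ∀ i, T i ∈ isometryGroup F Qf := fun i => iso_of_omega (h.sys.lf i).1
  apply h.all
  intro j
  have key : ∀ i, av (T i) v = v → yp^[j.val] i ≠ i0 → QuadraticMap.polar Qf v (U j) = 0 := by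
    intro i hi hne
    have h3 := polar_av (hiso i) v (U j)
    rw [hi, h.wt j i, Function.comp_apply, hi0, hQ.polar_bilinear.smul_right] at h3
    simp only [hne, decide_false, Bool.not_false, sg, if_true] at h3
    have h4 : (2 : F) * QuadraticMap.polar Qf v (U j) = 0 := by linear_combination -h3
    exact (mul_eq_zero.1 h4).resolve_left h2
  rcases comb8 i0 a b hab j with h3 | h3
  · exact key a ha h3
  · exact key b hb h3

/-- all lifts of transvections preserve the line of `z` -/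
theorem Frm.line (h2 : (2 : F) ≠ 0) (hQ : IsNondegenerateQuadraticForm Qf) (hι : Fintype.card ι = 8)
    (h : Frm m ρ T Y ε U z) {i0 : Fin 7} (hi0 : ∀ i, ε i = !decide (i = i0)) {u : V} (hu : u ≠ 0) {g : GL ι F}
    (hg : Lf m ρ g (tr u)) : ∃ c : F, av g z = c • z := by
  have hTz : ∀ i, av (T i) z = z := by
    intro i
    have := h.zwt i
    simp only [sg, Bool.false_eq_true, if_false, one_smul] at this
    exact this
  rcases cases_vec u with h3 | ⟨i, rfl⟩ | ⟨i3, hi3⟩
  · exact absurd h3 hu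
  · rcases lf_pm hQ (by omega) hg (h.sys.lf i) with h4 | h4
    · exact ⟨1, by rw [h4, hTz, one_smul]⟩
    · exact ⟨-1, by rw [h4, av_neg, hTz, neg_one_smul]⟩
  · obtain ⟨a, b, hab, ha, hb⟩ := exists_two u
    obtain ⟨X, hX⟩ := lf_exists (m := m) (ρ := ρ) (tr (u + pt i3))
    have e1 : act (tr (u + pt i3)) u = pt i3 := by
      rw [act_tr, om_add, om_self, zero_add, hi3, one_smul, ← add_assoc, add_self, zero_add]
    have e2 : ∀ {a}, om (pt a) u = 0 → act (tr (u + pt i3)) (pt a) = pt a := by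
      intro a ha
      rw [act_tr, om_add, ha, om_pt, add_zero, zero_smul, add_zero]
    have e3 : ∀ {a}, om (pt a) u = 0 → av (T a) (av X z) = av X z := by
      intro a ha
      have h4 := h.conj h2 hQ hι hi0 hX (e2 ha)
      have h5 : T a * X = X * T a := by
        conv_lhs => rw [h4]
        group
      rw [← av_mul, h5, av_mul, hTz]
    obtain ⟨c, hc⟩ := h.fix h2 hQ hi0 hab (e3 ha) (e3 hb)
    have hc0 : c ≠ 0 := by
      rintro rfl
      rw [zero_smul] at hc
      exact av_ne X h.zne hc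
    have hXi : av X⁻¹ z = c⁻¹ • z := by
      have h4 := av_inv_av X z
      rw [hc, av_smul] at h4
      have h5 : c⁻¹ • (c • av X⁻¹ z) = c⁻¹ • z := by rw [h4]
      rwa [smul_smul, inv_mul_cancel₀ hc0, one_smul] at h5
    have h6 : av (X⁻¹ * T i3 * X) z = z := by
      rw [av_mul, av_mul, hc, av_smul, av_smul, hTz, hXi, smul_smul, mul_inv_cancel₀ hc0, one_smul]
    rcases lf_conj_pm hQ (by omega) hX hg (h.sys.lf i3) e1 with h4 | h4
    · refine ⟨1, ?_⟩
      have h5 : g = X⁻¹ * T i3 * X := by rw [h4]; group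
      rw [h5, h6, one_smul]
    · refine ⟨-1, ?_⟩
      have h5 : g = -(X⁻¹ * T i3 * X) := by
        rw [h4, mul_neg, neg_mul, neg_neg]; group
      rw [h5, av_neg, h6, neg_one_smul]

/-- **the commuting case is impossible** -/
theorem false_of_sys (h2 : (2 : F) ≠ 0) (hQ : IsNondegenerateQuadraticForm Qf) (hι : Fintype.card ι = 8)
    (hρ : Function.Injective ρ)
    (hirr : ∀ W : Submodule F (ι → F), (∀ s g, Lf m ρ g s → ∀ v ∈ W, av g v ∈ W) → W = ⊥ ∨ W = ⊤)
    (h : Sys m ρ T Y) : False := by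
  obtain ⟨ε, U, z, h⟩ := exists_frm h2 hQ hι hρ h
  obtain ⟨i0, hi0⟩ := h.point h2 hQ hι hρ
  have hι' : 0 < Fintype.card ι := by omega
  have key : ∀ s : S, ∀ g, Lf m ρ g s → ∃ c : F, av g z = c • z := by
    intro s
    have hs : s ∈ Subgroup.closure (Set.range fun i => tr (v i)) := by rw [closure_v]; exact Subgroup.mem_top s
    induction hs using Subgroup.closure_induction with
    | mem x hx =>
      obtain ⟨i, rfl⟩ := hx
      intro g hg
      exact h.line h2 hQ hι hi0 (v_ne i) hg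
    | one =>
      intro g hg
      rcases lf_one_pm hQ hι' hg with h3 | h3
      · exact ⟨1, by rw [h3, av_one, one_smul]⟩
      · exact ⟨-1, by rw [h3, av_neg, av_one, neg_one_smul]⟩
    | mul x y _ _ hx hy =>
      intro g hg
      obtain ⟨g1, hg1⟩ := lf_exists (m := m) (ρ := ρ) x
      obtain ⟨g2, hg2⟩ := lf_exists (m := m) (ρ := ρ) y
      obtain ⟨c1, hc1⟩ := hx g1 hg1
      obtain ⟨c2, hc2⟩ := hy g2 hg2
      have h4 : av (g1 * g2) z = (c2 * c1) • z := by rw [av_mul, hc2, av_smul, hc1, smul_smul]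
      rcases lf_pm hQ hι' hg (lf_mul hg1 hg2) with h3 | h3
      · exact ⟨_, by rw [h3, h4]⟩
      · exact ⟨-(c2 * c1), by rw [h3, av_neg, h4, neg_smul]⟩
    | inv x _ hx =>
      intro g hg
      have h3 := lf_inv hg
      rw [inv_inv] at h3
      obtain ⟨c, hc⟩ := hx _ h3
      have hc0 : c ≠ 0 := by
        rintro rfl
        rw [zero_smul] at hc
        exact av_ne g⁻¹ h.zne hc
      refine ⟨c⁻¹, ?_⟩
      have h4 : av g (av g⁻¹ z) = z := by rw [← av_mul, mul_inv_cancel, av_one]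
      rw [hc, av_smul] at h4
      have h5 : c⁻¹ • (c • av g z) = c⁻¹ • z := by rw [h4]
      rwa [smul_smul, inv_mul_cancel₀ hc0, one_smul] at h5
  rcases hirr (Submodule.span F {z}) (by
    intro s g hg v hv
    obtain ⟨a, rfl⟩ := Submodule.mem_span_singleton.1 hv
    obtain ⟨c, hc⟩ := key s g hg
    rw [av_smul, hc]
    exact Submodule.smul_mem _ _ (Submodule.smul_mem _ _ (Submodule.mem_span_singleton_self z))) with h3 | h3
  · rw [Submodule.span_singleton_eq_bot] at h3
    exact h.zne h3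
  · have h4 := finrank_span_singleton (K := F) h.zne
    rw [h3, finrank_top, Module.finrank_fintype_fun_eq_card, hι] at h4
    norm_num at h4

/-- **the element `x`** -/
theorem exists_x_eight [Finite F] (h2 : (2 : F) ≠ 0) (hQ : IsNondegenerateQuadraticForm Qf) (hι : Fintype.card ι = 8)
    (hρ : Function.Injective ρ)
    (hirr : ∀ W : Submodule F (ι → F), (∀ s g, Lf m ρ g s → ∀ v ∈ W, av g v ∈ W) → W = ⊥ ∨ W = ⊤) :
    ∃ x : Q, x * ρ (tr (pt 1)) * x⁻¹ = ρ (tr (pt 0)) ∧ x * ρ (tr (pt 0)) * x⁻¹ = ρ (tr (pt 1)) * ρ (tr (pt 0)) ∧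
      ∀ i, i ≠ 0 → i ≠ 1 → x * ρ (tr (pt i)) * x⁻¹ = ρ (tr (pt i)) * ρ (tr (pt 0)) := by
  choose T hT using fun i : Fin 7 => lf_exists (m := m) (ρ := ρ) (tr (pt i))
  by_cases hc : T 0 * T 1 = T 1 * T 0
  · exfalso
    obtain ⟨T', Y, h⟩ := exists_sys h2 hQ (by omega) hT hc
    exact false_of_sys h2 hQ hι hρ hirr h
  · exact exists_x_anti h2 (by omega) hQ hT hc

end lift

end Cfsg.Agent.H901.OP
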