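import Cfsg.Agent.H901.OP.Quat
import Cfsg.Agent.H84.EP.RowSp6

/-!
# S3499, `Sp₆(2)` in `Ω₈⁺(q)`: lifts of the transvections (helper901)
-/

set_option autoImplicit false
set_option linter.unusedSectionVars false

namespace Cfsg.Agent.H901.OP

open Cfsg Cfsg.Geo Matrix Cfsg.Agent.SporRec.TwoSp6.Sp Cfsg.Agent.H284 Cfsg.Agent.H419.EP Cfsg.Agent.H84.EP
open scoped MatrixGroups

section lift
variable {F : Type*} [Field F] {ι : Type} [Fintype ι] [DecidableEq ι] {Qf : (ι → F) → F} {Q : Type*} [Group Q]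
  (m : Model Q (omegaGL Qf)) (ρ : S →* Q)

/-- `g` lifts `s` -/
def Lf (g : GL ι F) (s : S) : Prop := ∃ hg : g ∈ omegaGL Qf, m.π ⟨g, hg⟩ = ρ s

variable {m ρ}

theorem lf_exists (s : S) : ∃ g, Lf m ρ g s := by
  obtain ⟨⟨g, hg⟩, h⟩ := m.surj (ρ s)
  exact ⟨g, hg, h⟩

theorem lf_mul {g h : GL ι F} {s t : S} (hg : Lf m ρ g s) (hh : Lf m ρ h t) : Lf m ρ (g * h) (s * t) := by
  obtain ⟨hg, eg⟩ := hg
  obtain ⟨hh, eh⟩ := hh
  refine ⟨mul_mem hg hh, ?_⟩
  rw [map_mul, ← eg, ← eh, ← map_mul]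
  rfl

theorem lf_one : Lf m ρ 1 1 := ⟨one_mem _, by rw [map_one]; exact map_one m.π⟩

theorem lf_inv {g : GL ι F} {s : S} (hg : Lf m ρ g s) : Lf m ρ g⁻¹ s⁻¹ := by
  obtain ⟨hg, eg⟩ := hg
  refine ⟨inv_mem hg, ?_⟩
  rw [map_inv, ← eg, ← map_inv]
  rfl

theorem lf_conj {X g : GL ι F} {s : S} {u : V} (hX : Lf m ρ X s) (hg : Lf m ρ g (tr u)) :
    Lf m ρ (X * g * X⁻¹) (tr (act s u)) := by
  rw [← conj_tr]
  exact lf_mul (lf_mul hX hg) (lf_inv hX)

/-- the scalars of `Ω` are `±1` -/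
theorem sc_pm (hQ : IsNondegenerateQuadraticForm Qf) (hι : 0 < Fintype.card ι) {g : GL ι F} (hg : g ∈ omegaGL Qf)
    (hs : g ∈ scalars ι F) : g = 1 ∨ g = -1 := by
  rw [mem_scalars_iff] at hs
  obtain ⟨c, hc⟩ := hs
  have h2 : ∃ v, Qf v ≠ 0 := by
    by_contra hcon
    push Not at hcon
    have : Nonempty ι := Fintype.card_pos_iff.1 hι
    obtain ⟨i⟩ := this
    obtain ⟨⟨x, hx⟩, -⟩ := hQ.nondegenerate (Pi.single i 1) (by simp)
    apply hx
    unfold QuadraticMap.polar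
    rw [hcon, hcon, hcon]
    simp
  obtain ⟨v, hv⟩ := h2
  have h3 := mem_iso.1 (iso_of_omega hg) v
  have h4 : av g v = (c : F) • v := by
    unfold av
    rw [hc, Matrix.smul_mulVec, Matrix.one_mulVec]
  rw [h4, hQ.smul] at h3
  have h5 : ((c : F) ^ 2 - 1) * Qf v = 0 := by rw [sub_mul, h3, one_mul, sub_self]
  have h6 : (c : F) * c = 1 := by
    have := sub_eq_zero.1 ((mul_eq_zero.1 h5).resolve_right hv)
    rw [pow_two] at this
    exact this
  rcases mul_self_eq_one_iff.1 h6 with h7 | h7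
  · left
    apply Units.ext
    rw [hc, h7, one_smul]
    rfl
  · right
    apply Units.ext
    rw [hc, h7, neg_one_smul, Units.val_neg]
    rfl

variable (hQ : IsNondegenerateQuadraticForm Qf) (hι : 0 < Fintype.card ι)
include hQ hι

theorem lf_pm {g h : GL ι F} {s : S} (hg : Lf m ρ g s) (hh : Lf m ρ h s) : g = h ∨ g = -h := by
  obtain ⟨hg, eg⟩ := hg
  obtain ⟨hh, eh⟩ := hh
  obtain ⟨z, hz, e⟩ := (m.π_eq_iff ⟨g, hg⟩ ⟨h, hh⟩).1 (eg.trans eh.symm)
  have e' : g = h * z := e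
  have hzO : z ∈ omegaGL Qf := by
    have : z = h⁻¹ * g := by rw [e']; group
    rw [this]
    exact mul_mem (inv_mem hh) hg
  rcases sc_pm hQ hι hzO hz with rfl | rfl
  · left; rw [e', mul_one]
  · right; rw [e', mul_neg, mul_one]

theorem lf_one_pm {g : GL ι F} (hg : Lf m ρ g 1) : g = 1 ∨ g = -1 := lf_pm hQ hι hg lf_one

omit hQ hι in
theorem lf_inj (hρ : Function.Injective ρ) {g : GL ι F} {s t : S} (hs : Lf m ρ g s) (ht : Lf m ρ g t) : s = t := by
  obtain ⟨hg, eg⟩ := hs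
  obtain ⟨hg', eg'⟩ := ht
  exact hρ (eg.symm.trans eg')

omit hQ hι in
theorem neg_one_scalar : (-1 : GL ι F) ∈ scalars ι F := by
  rw [mem_scalars_iff]
  exact ⟨-1, by rw [Units.val_neg, Units.val_neg, Units.val_one, Units.val_one, neg_one_smul]⟩

omit hQ hι in
theorem lf_neg (hρ : Function.Injective ρ) {g : GL ι F} {s t : S} (hs : Lf m ρ g s) (ht : Lf m ρ (-g) t) : s = t := by
  obtain ⟨hg, eg⟩ := hs
  obtain ⟨hg', eg'⟩ := ht
  apply hρ
  rw [← eg, ← eg', m.π_eq_iff]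
  refine ⟨-1, neg_one_scalar, ?_⟩
  show g = -g * -1
  rw [neg_mul_neg, mul_one]

theorem lf_comm {g h : GL ι F} {s t : S} (hg : Lf m ρ g s) (hh : Lf m ρ h t) (hst : s * t = t * s) :
    g * h = h * g ∨ g * h = -(h * g) := by
  apply lf_pm hQ hι (lf_mul hg hh)
  rw [hst]
  exact lf_mul hh hg

theorem lf_sq {g : GL ι F} {u : V} (hg : Lf m ρ g (tr u)) : g * g = 1 ∨ g * g = -1 := by
  refine lf_one_pm (m := m) (ρ := ρ) hQ hι ?_
  rw [← tr_sq u]
  exact lf_mul hg hg

/-- conjugation by a lift -/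
theorem lf_conj_pm {X g h : GL ι F} {s : S} {u w : V} (hX : Lf m ρ X s) (hg : Lf m ρ g (tr u)) (hh : Lf m ρ h (tr w))
    (hw : act s u = w) : h = X * g * X⁻¹ ∨ h = -(X * g * X⁻¹) := by
  apply lf_pm hQ hι hh
  rw [← hw]
  exact lf_conj hX hg

/-- squares of lifts of transvections -/
theorem sq_const {g h : GL ι F} {u w : V} (hu : u ≠ 0) (hw : w ≠ 0) (hg : Lf m ρ g (tr u)) (hh : Lf m ρ h (tr w)) :
    h * h = g * g := by
  obtain ⟨s, hs⟩ := exists_act hu hw
  obtain ⟨X, hX⟩ := lf_exists (m := m) (ρ := ρ) s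
  have h1 : (X * g * X⁻¹) * (X * g * X⁻¹) = g * g := by
    have h2 : (X * g * X⁻¹) * (X * g * X⁻¹) = X * (g * g) * X⁻¹ := by group
    rw [h2]
    rcases lf_sq hQ hι hg with h3 | h3
    · rw [h3, mul_one, mul_inv_cancel]
    · rw [h3, mul_neg, mul_one, neg_mul, mul_inv_cancel]
  rcases lf_conj_pm hQ hι hX hg hh hs with h2 | h2
  · rw [h2, h1]
  · rw [h2, neg_mul_neg, h1]

/-- commuting pairs -/
theorem comm_const {g h g' h' : GL ι F} {u w u' w' : V} (hu : u ≠ 0) (hw : w ≠ 0) (hne : w ≠ u) (ho : om u w = 0)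
    (hu' : u' ≠ 0) (hw' : w' ≠ 0) (hne' : w' ≠ u') (ho' : om u' w' = 0) (hg : Lf m ρ g (tr u)) (hh : Lf m ρ h (tr w))
    (hg' : Lf m ρ g' (tr u')) (hh' : Lf m ρ h' (tr w')) (hc : g * h = h * g) : g' * h' = h' * g' := by
  obtain ⟨s, hs, hs'⟩ := exists_pair hu hw hne ho hu' hw' hne' ho'
  obtain ⟨X, hX⟩ := lf_exists (m := m) (ρ := ρ) s
  have h1 : (X * g * X⁻¹) * (X * h * X⁻¹) = (X * h * X⁻¹) * (X * g * X⁻¹) := by
    calc (X * g * X⁻¹) * (X * h * X⁻¹) = X * (g * h) * X⁻¹ := by group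
      _ = X * (h * g) * X⁻¹ := by rw [hc]
      _ = (X * h * X⁻¹) * (X * g * X⁻¹) := by group
  rcases lf_conj_pm hQ hι hX hg hg' hs with h2 | h2 <;> rcases lf_conj_pm hQ hι hX hh hh' hs' with h3 | h3 <;>
    rw [h2, h3]
  · exact h1
  · rw [mul_neg, neg_mul, h1]
  · rw [mul_neg, neg_mul, h1]
  · rw [neg_mul_neg, neg_mul_neg, h1]

omit hQ hι in
theorem lf_fano {T : Fin 7 → GL ι F} (hT : ∀ i, Lf m ρ (T i) (tr (pt i))) :
    Lf m ρ (T 6 * (T 2 * (T 4 * (T 5 * (T 0 * (T 1 * T 3)))))) 1 := by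
  have h1 := fano_prod
  simp only [fano, List.map_cons, List.map_nil, List.prod_cons, List.prod_nil, mul_one] at h1
  rw [← h1]
  exact lf_mul (hT 6) (lf_mul (hT 2) (lf_mul (hT 4) (lf_mul (hT 5) (lf_mul (hT 0) (lf_mul (hT 1) (hT 3))))))

end lift

/-! ### the anticommuting case -/

section anti
variable {G : Type*} [Group G] [HasDistribNeg G]

theorem sq_comm {P c : G} (h : P * c = c * P) (hc : c * c = 1) : (P * c) * (P * c) = P * P := by
  calc (P * c) * (P * c) = P * (c * P) * c := by group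
    _ = P * (P * c) * c := by rw [h]
    _ = P * P * (c * c) := by group
    _ = P * P := by rw [hc, mul_one]

theorem sq_anti {P c : G} (h : P * c = -(c * P)) (hc : c * c = 1) : (P * c) * (P * c) = -(P * P) := by
  have h' : c * P = -(P * c) := by rw [h, neg_neg]
  calc (P * c) * (P * c) = P * (c * P) * c := by group
    _ = P * (-(P * c)) * c := by rw [h']
    _ = -(P * P * (c * c)) := by rw [mul_neg, neg_mul]; congr 1; group
    _ = -(P * P) := by rw [hc, mul_one]

theorem anti_mul {P a c : G} {s : Bool} (hP : P * c = if s then -(c * P) else c * P) (ha : a * c = -(c * a)) :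
    (P * a) * c = if s then c * (P * a) else -(c * (P * a)) := by
  cases s
  · simp only [Bool.false_eq_true, if_false] at hP ⊢
    calc (P * a) * c = P * (a * c) := by group
      _ = -(P * c * a) := by rw [ha, mul_neg]; congr 1; group
      _ = -(c * (P * a)) := by rw [hP]; congr 1; group
  · simp only [if_true] at hP ⊢
    calc (P * a) * c = P * (a * c) := by group
      _ = -(P * c * a) := by rw [ha, mul_neg]; congr 1; group
      _ = c * (P * a) := by rw [hP, neg_mul, neg_neg]; group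

/-- the square of the product of seven pairwise anticommuting involutions is `-1` -/
theorem sq_seven {a b c d e f g : G} (ha : a * a = 1) (hb : b * b = 1) (hc : c * c = 1) (hd : d * d = 1)
    (he : e * e = 1) (hf : f * f = 1) (hg : g * g = 1)
    (ab : a * b = -(b * a)) (ac : a * c = -(c * a)) (ad : a * d = -(d * a)) (ae : a * e = -(e * a))
    (af : a * f = -(f * a)) (ag : a * g = -(g * a)) (bc : b * c = -(c * b)) (bd : b * d = -(d * b))
    (be : b * e = -(e * b)) (bf : b * f = -(f * b)) (bg : b * g = -(g * b)) (cd : c * d = -(d * c))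
    (ce : c * e = -(e * c)) (cf : c * f = -(f * c)) (cg : c * g = -(g * c)) (de : d * e = -(e * d))
    (df : d * f = -(f * d)) (dg : d * g = -(g * d)) (ef : e * f = -(f * e)) (eg : e * g = -(g * e))
    (fg : f * g = -(g * f)) :
    (a * b * c * d * e * f * g) * (a * b * c * d * e * f * g) = -1 := by
  have lift : ∀ {x y : G}, x * y = -(y * x) → x * y = if true then -(y * x) else y * x := by
    intro x y h; simpa using h
  have c3 := anti_mul (lift ac) bc
  have d3 := anti_mul (lift ad) bd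
  have e3 := anti_mul (lift ae) be
  have f3 := anti_mul (lift af) bf
  have g3 := anti_mul (lift ag) bg
  simp only [if_true] at c3 d3 e3 f3 g3
  have lift' : ∀ {x y : G}, x * y = y * x → x * y = if false then -(y * x) else y * x := by
    intro x y h; simpa using h
  have d4 := anti_mul (lift' d3) cd
  have e4 := anti_mul (lift' e3) ce
  have f4 := anti_mul (lift' f3) cf
  have g4 := anti_mul (lift' g3) cg
  simp only [Bool.false_eq_true, if_false] at d4 e4 f4 g4
  have e5 := anti_mul (lift e4) de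
  have f5 := anti_mul (lift f4) df
  have g5 := anti_mul (lift g4) dg
  simp only [if_true] at e5 f5 g5
  have f6 := anti_mul (lift' f5) ef
  have g6 := anti_mul (lift' g5) eg
  simp only [Bool.false_eq_true, if_false] at f6 g6
  have g7 := anti_mul (lift g6) fg
  simp only [if_true] at g7
  rw [sq_comm g7 hg, sq_anti f6 hf, sq_comm e5 he, sq_anti d4 hd, sq_comm c3 hc, sq_anti ab hb, ha]
  simp

end anti

end Cfsg.Agent.H901.OP
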