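import Cfsg.Agent.H84.EP.Form
import Cfsg.Agent.H377.ToOmega
import Cfsg.Agent.H884.OmegaGL

/-!
# S3499, `Sp₆(2)` in `Ω₈⁺(q)`: quaternions (helper901)
-/

set_option autoImplicit false
set_option linter.unusedSectionVars false

namespace Cfsg.Agent.H901.OP

open Cfsg Cfsg.Geo Matrix Cfsg.Agent.H84.EP
open scoped MatrixGroups

section ring
variable {R : Type*} [Ring R] {i j : R}

theorem q_kk (hi : i * i = -1) (hj : j * j = -1) (hji : j * i = -(i * j)) : (i * j) * (i * j) = -1 := by
  calc (i * j) * (i * j) = i * (j * i) * j := by simp only [mul_assoc]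
    _ = -(i * i * (j * j)) := by rw [hji]; simp only [mul_neg, neg_mul, mul_assoc]
    _ = -1 := by rw [hi, hj]; simp

theorem q_ik (hi : i * i = -1) : i * (i * j) = -j := by
  rw [← mul_assoc, hi, neg_one_mul]

theorem q_ki (hi : i * i = -1) (hji : j * i = -(i * j)) : (i * j) * i = j := by
  rw [mul_assoc, hji, mul_neg, q_ik hi, neg_neg]

theorem q_kj (hj : j * j = -1) : (i * j) * j = -i := by
  rw [mul_assoc, hj, mul_neg, mul_one]

theorem q_jk (hj : j * j = -1) (hji : j * i = -(i * j)) : j * (i * j) = i := by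
  rw [← mul_assoc, hji, neg_mul, q_kj hj, neg_neg]

/-- `(1 + i + j + ij)(1 - i - j - ij) = 4` -/
theorem q_norm (hi : i * i = -1) (hj : j * j = -1) (hji : j * i = -(i * j)) :
    (1 + i + j + i * j) * (1 - i - j - i * j) = 4 := by
  have h1 := q_kk hi hj hji
  have h2 := q_ik (j := j) hi
  have h3 := q_ki hi hji
  have h4 := q_kj (i := i) hj
  have h5 := q_jk hj hji
  simp only [add_mul, mul_sub, mul_one, one_mul]
  rw [h1, h2, h3, h4, h5, hi, hj, hji]
  have h4' : (4 : R) = 1 + 1 + 1 + 1 := by norm_num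
  rw [h4']
  abel

theorem q_norm' (hi : i * i = -1) (hj : j * j = -1) (hji : j * i = -(i * j)) :
    (1 - i - j - i * j) * (1 + i + j + i * j) = 4 := by
  have h1 := q_kk hi hj hji
  have h2 := q_ik (j := j) hi
  have h3 := q_ki hi hji
  have h4 := q_kj (i := i) hj
  have h5 := q_jk hj hji
  simp only [mul_add, sub_mul, mul_one, one_mul]
  rw [h1, h2, h3, h4, h5, hi, hj, hji]
  have h4' : (4 : R) = 1 + 1 + 1 + 1 := by norm_num
  rw [h4']
  abel

/-- `(1 + i + j + ij)² = -2 (1 - i - j - ij)` -/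
theorem q_sq (hi : i * i = -1) (hj : j * j = -1) (hji : j * i = -(i * j)) :
    (1 + i + j + i * j) * (1 + i + j + i * j) = -((1 - i - j - i * j) + (1 - i - j - i * j)) := by
  have h1 := q_kk hi hj hji
  have h2 := q_ik (j := j) hi
  have h3 := q_ki hi hji
  have h4 := q_kj (i := i) hj
  have h5 := q_jk hj hji
  simp only [mul_add, add_mul, mul_one, one_mul]
  rw [h1, h2, h3, h4, h5, hi, hj, hji]
  abel

theorem q_conj_i (hi : i * i = -1) (hj : j * j = -1) (hji : j * i = -(i * j)) :
    (1 + i + j + i * j) * i = j * (1 + i + j + i * j) := by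
  have h3 := q_ki hi hji
  have h5 := q_jk hj hji
  simp only [mul_add, add_mul, mul_one, one_mul]
  rw [h3, h5, hi, hj, hji]
  abel

theorem q_conj_j (hi : i * i = -1) (hj : j * j = -1) (hji : j * i = -(i * j)) :
    (1 + i + j + i * j) * j = i * j * (1 + i + j + i * j) := by
  have h1 := q_kk hi hj hji
  have h3 := q_ki hi hji
  have h4 := q_kj (i := i) hj
  simp only [mul_add, add_mul, mul_one, one_mul]
  rw [h1, h3, h4, hj]
  abel

theorem q_conj_t {t : R} (hj : j * j = -1) (hji : j * i = -(i * j)) (hti : i * t = -(t * i))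
    (htj : j * t = -(t * j)) : (1 + i + j + i * j) * t = -(t * j * (1 + i + j + i * j)) := by
  have h5 := q_jk hj hji
  have h6 : i * j * t = t * (i * j) := by
    rw [mul_assoc, htj, mul_neg, ← mul_assoc, hti, neg_mul, neg_neg, mul_assoc]
  simp only [mul_add, add_mul, mul_one, one_mul]
  rw [h6, hti, htj, mul_assoc t j i, mul_assoc t j j, mul_assoc t j (i * j), hji, hj, h5]
  simp only [mul_neg, mul_one]
  abel

end ring

section form
variable {F : Type*} [Field F] {ι : Type} [Fintype ι] [DecidableEq ι] {Qf : (ι → F) → F}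

theorem polar_symm (u w : ι → F) : QuadraticMap.polar Qf u w = QuadraticMap.polar Qf w u := QuadraticMap.polar_comm Qf u w

/-- an isometry with square `-1` is skew -/
theorem polar_skew (h2 : (2 : F) ≠ 0) (hQ : IsNondegenerateQuadraticForm Qf) {i : GL ι F} (hi : i ∈ isometryGroup F Qf)
    (hii : i * i = -1) (v : ι → F) : QuadraticMap.polar Qf v (av i v) = 0 := by
  have h1 := polar_av hi v (av i v)
  have h3 : av i (av i v) = (-1 : F) • v := by
    rw [← av_mul, hii]
    show (((-1 : GL ι F) : GL ι F) : Matrix ι ι F) *ᵥ v = _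
    rw [Units.val_neg, Units.val_one, Matrix.neg_mulVec, Matrix.one_mulVec, neg_one_smul]
  have hb := hQ.polar_bilinear
  rw [h3, hb.smul_right, polar_symm (av i v) v] at h1
  have h4 : (2 : F) * QuadraticMap.polar Qf v (av i v) = 0 := by linear_combination -h1
  exact (mul_eq_zero.1 h4).resolve_left h2

/-- `4 Q(v) = Q(v + iv + jv + ijv)` -/
theorem q_form (h2 : (2 : F) ≠ 0) (hQ : IsNondegenerateQuadraticForm Qf) {i j : GL ι F} (hi : i ∈ isometryGroup F Qf)
    (hj : j ∈ isometryGroup F Qf) (hii : i * i = -1) (hjj : j * j = -1) (hji : j * i = -(i * j)) (v : ι → F) :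
    Qf (v + av i v + av j v + av (i * j) v) = 4 * Qf v := by
  have hij : i * j ∈ isometryGroup F Qf := mul_mem hi hj
  have hk : (i * j) * (i * j) = -1 := by
    calc (i * j) * (i * j) = i * (j * i) * j := by group
      _ = -((i * i) * (j * j)) := by rw [hji, mul_neg, neg_mul]; congr 1; group
      _ = -1 := by rw [hii, hjj, neg_mul_neg, one_mul]
  have hb := hQ.polar_bilinear
  have add : ∀ u w : ι → F, Qf (u + w) = Qf u + Qf w + QuadraticMap.polar Qf u w := by
    intro u w
    unfold QuadraticMap.polar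
    ring
  have e1 := polar_skew h2 hQ hi hii v
  have e2 := polar_skew h2 hQ hj hjj v
  have e3 := polar_skew h2 hQ hij hk v
  have e4 : QuadraticMap.polar Qf (av i v) (av j v) = 0 := by
    -- `i v = w`, `j v = ij w` up to sign
    have h3 : av j v = av (i * j) (av i v) := by
      rw [← av_mul]
      congr 1
      calc j = -(i * i) * j := by rw [hii, neg_neg, one_mul]
        _ = i * (-(i * j)) := by rw [neg_mul, mul_neg, mul_assoc]
        _ = i * j * i := by rw [← hji, mul_assoc]
    rw [h3]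
    exact polar_skew h2 hQ hij hk _
  have e5 : QuadraticMap.polar Qf (av i v) (av (i * j) v) = 0 := by
    rw [av_mul, polar_av hi]
    exact e2
  have e6 : QuadraticMap.polar Qf (av j v) (av (i * j) v) = 0 := by
    rw [av_mul]
    exact polar_skew h2 hQ hi hii _
  rw [add, add, add, hb.add_left, hb.add_left, hb.add_left, e1, e2, e3, e4, e5, e6, mem_iso.1 hi, mem_iso.1 hj,
    mem_iso.1 hij]
  ring

/-- **the element `x`** -/
theorem exists_quat [Finite F] (h2 : (2 : F) ≠ 0) (hι : 5 ≤ Fintype.card ι) (hQ : IsNondegenerateQuadraticForm Qf) {i j : GL ι F}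
    (hi : i ∈ isometryGroup F Qf) (hj : j ∈ isometryGroup F Qf) (hii : i * i = -1) (hjj : j * j = -1)
    (hji : j * i = -(i * j)) :
    ∃ x : GL ι F, x ∈ omegaGL Qf ∧ x * i * x⁻¹ = j ∧ x * j * x⁻¹ = i * j ∧
      ∀ t : GL ι F, i * t = -(t * i) → j * t = -(t * j) → x * t * x⁻¹ = -(t * j) := by
  obtain ⟨I, hI⟩ : ∃ I : Matrix ι ι F, I = i.1 := ⟨_, rfl⟩
  obtain ⟨J, hJ⟩ : ∃ J : Matrix ι ι F, J = j.1 := ⟨_, rfl⟩
  have hII : I * I = -1 := by
    rw [hI, ← Units.val_mul, hii, Units.val_neg, Units.val_one]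
  have hJJ : J * J = -1 := by
    rw [hJ, ← Units.val_mul, hjj, Units.val_neg, Units.val_one]
  have hJI : J * I = -(I * J) := by
    rw [hI, hJ, ← Units.val_mul, hji, Units.val_neg, Units.val_mul]
  obtain ⟨c, hc⟩ : ∃ c : F, c = -(2 : F)⁻¹ := ⟨_, rfl⟩
  have hc2 : c * 2 = -1 := by rw [hc, neg_mul, inv_mul_cancel₀ h2]
  have hc4 : c * c * 4 = 1 := by linear_combination (c * 2 - 1) * hc2
  have four : ∀ d : F, d • (4 : Matrix ι ι F) = (d * 4) • 1 := by
    intro d
    have : (4 : Matrix ι ι F) = (4 : F) • 1 := by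
      rw [← Algebra.algebraMap_eq_smul_one]
      exact (map_ofNat _ 4).symm
    rw [this, smul_smul]
  let x : GL ι F := ⟨c • (1 + I + J + I * J), c • (1 - I - J - I * J), by
    rw [smul_mul_smul_comm, q_norm hII hJJ hJI, four, hc4, one_smul], by
    rw [smul_mul_smul_comm, q_norm' hII hJJ hJI, four, hc4, one_smul]⟩
  have hx : x.1 = c • (1 + I + J + I * J) := rfl
  have hx' : (x⁻¹).1 = c • (1 - I - J - I * J) := rfl
  have hx3 : x ^ 3 = 1 := by
    have h3 : x * x = x⁻¹ := by
      apply Units.ext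
      rw [Units.val_mul, hx', hx, smul_mul_smul_comm, q_sq hII hJJ hJI, smul_neg, ← neg_smul, ← two_smul F (1 - I - J - I * J),
        smul_smul]
      congr 1
      linear_combination (-c) * hc2
    rw [pow_succ, pow_two, h3, inv_mul_cancel]
  have hxI : x ∈ isometryGroup F Qf := by
    rw [mem_iso]
    intro v
    have h3 : av x v = c • (v + av i v + av j v + av (i * j) v) := by
      unfold av
      rw [hx, Matrix.smul_mulVec, Matrix.add_mulVec, Matrix.add_mulVec, Matrix.add_mulVec, Matrix.one_mulVec, hI, hJ]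
      rfl
    rw [h3, hQ.smul, q_form h2 hQ hi hj hii hjj hji]
    linear_combination (Qf v) * hc4
  refine ⟨x, ?_, ?_, ?_, ?_⟩
  · let g : isometryGroup F (⇑(Cfsg.Agent.H884.OmegaGL.bundle Qf hQ)) := ⟨x ^ 2, (isometryGroup F Qf).pow_mem hxI 2⟩
    refine ⟨g * g, Cfsg.Agent.H377.mul_self_mem_Omega _ (Cfsg.Agent.H884.OmegaGL.nondeg_bundle Qf hQ) hι g, ?_⟩
    show x ^ 2 * x ^ 2 = x
    calc x ^ 2 * x ^ 2 = x ^ 3 * x := by group
      _ = x := by rw [hx3, one_mul]
  · rw [mul_inv_eq_iff_eq_mul]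
    apply Units.ext
    rw [Units.val_mul, Units.val_mul, hx, ← hI, ← hJ, smul_mul_assoc, q_conj_i hII hJJ hJI, mul_smul_comm]
  · rw [mul_inv_eq_iff_eq_mul]
    apply Units.ext
    rw [Units.val_mul, Units.val_mul, Units.val_mul, hx, ← hI, ← hJ, smul_mul_assoc, q_conj_j hII hJJ hJI, mul_smul_comm]
  · intro t hit hjt
    have hIt : I * t.1 = -(t.1 * I) := by
      rw [hI, ← Units.val_mul, hit, Units.val_neg, Units.val_mul]
    have hJt : J * t.1 = -(t.1 * J) := by
      rw [hJ, ← Units.val_mul, hjt, Units.val_neg, Units.val_mul]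
    rw [mul_inv_eq_iff_eq_mul]
    apply Units.ext
    rw [Units.val_mul, Units.val_mul, Units.val_neg, Units.val_mul, hx, ← hJ, smul_mul_assoc, q_conj_t hJJ hJI hIt hJt,
      neg_mul, mul_smul_comm, smul_neg]

end form
end Cfsg.Agent.H901.OP
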