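import Cfsg.Agent.H901.OP.Anti
import Cfsg.Agent.H84.EP.SpC

/-!
# S3499, `Sp₆(2)` in `Ω₈⁺(q)`: the case of commuting lifts, normalised lifts (helper901)
-/

set_option autoImplicit false
set_option linter.unusedSectionVars false

namespace Cfsg.Agent.H901.OP

open Cfsg Cfsg.Geo Matrix Cfsg.Agent.SporRec.TwoSp6.Sp Cfsg.Agent.H284 Cfsg.Agent.H419.EP Cfsg.Agent.H84.EP
open scoped MatrixGroups

theorem ya_seven : ya ^ 7 = 1 := by
  apply Subtype.ext
  show (ya : Matrix (Fin 3 ⊕ Fin 3) (Fin 3 ⊕ Fin 3) (ZMod 2)) ^ 7 = 1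
  have h : (ya : Matrix (Fin 3 ⊕ Fin 3) (Fin 3 ⊕ Fin 3) (ZMod 2)) = fromBlocks ym 0 0 ym' := rfl
  rw [h]
  have h2 : ∀ n : ℕ, (fromBlocks ym 0 0 ym') ^ n = fromBlocks (ym ^ n) 0 0 (ym' ^ n) := by
    intro n
    induction n with
    | zero => simp
    | succ n ih => rw [pow_succ, ih, fromBlocks_multiply]; simp [pow_succ]
  rw [h2]
  have h3 : ym ^ 7 = 1 := by decide +kernel
  have h4 : ym' ^ 7 = 1 := by decide +kernel
  rw [h3, h4, fromBlocks_one]

/-- position in the cycle of `yp` -/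
def kk : Fin 7 → ℕ := ![0, 1, 3, 2, 6, 4, 5]

theorem kk_iter : ∀ i : Fin 7, yp^[kk i] 0 = i := by decide

theorem kk_yp : ∀ i : Fin 7, (kk i + 1) % 7 = kk (yp i) := by decide

theorem act_ya_pow (n : ℕ) (i : Fin 7) : act (ya ^ n) (pt i) = pt (yp^[n] i) := by
  induction n with
  | zero => rw [pow_zero, act_one]; rfl
  | succ n ih => rw [pow_succ', act_mul, ih, act_ya, Function.iterate_succ_apply']

section lift
variable {F : Type*} [Field F] {ι : Type} [Fintype ι] [DecidableEq ι] {Qf : (ι → F) → F} {Q : Type*} [Group Q]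
  {m : Model Q (omegaGL Qf)} {ρ : S →* Q}

/-- normalised commuting lifts -/
structure Sys (m : Model Q (omegaGL Qf)) (ρ : S →* Q) (T : Fin 7 → GL ι F) (Y : GL ι F) : Prop where
  lf : ∀ i, Lf m ρ (T i) (tr (pt i))
  comm : ∀ i j, T i * T j = T j * T i
  sq : ∀ i, T i * T i = 1
  conj : ∀ i, Y * T i * Y⁻¹ = T (yp i)
  seven : Y ^ 7 = 1
  lfY : Lf m ρ Y ya
  prod : T 6 * (T 2 * (T 4 * (T 5 * (T 0 * (T 1 * T 3))))) = 1

theorem lf_pow {g : GL ι F} {s : S} (hg : Lf m ρ g s) (n : ℕ) : Lf m ρ (g ^ n) (s ^ n) := by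
  induction n with
  | zero => rw [pow_zero, pow_zero]; exact lf_one
  | succ n ih => rw [pow_succ, pow_succ]; exact lf_mul ih hg

theorem exists_Y (hQ : IsNondegenerateQuadraticForm Qf) (hι : 0 < Fintype.card ι) :
    ∃ Y : GL ι F, Lf m ρ Y ya ∧ Y ^ 7 = 1 := by
  obtain ⟨Y, hY⟩ := lf_exists (m := m) (ρ := ρ) ya
  refine ⟨Y ^ 8, ?_, ?_⟩
  · have h := lf_pow hY 8
    have e : ya ^ 8 = ya := by rw [pow_succ, ya_seven, one_mul]
    rwa [e] at h
  · have h := lf_pow hY 7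
    rw [ya_seven] at h
    rw [← pow_mul, mul_comm, pow_mul]
    rcases lf_one_pm hQ hι h with h1 | h1
    · rw [h1, one_pow]
    · rw [h1]
      exact Even.neg_one_pow (by decide)

/-- the lifts `Y ^ k T₀ Y ^ (-k)` -/
def cyT (Y T : GL ι F) (i : Fin 7) : GL ι F := Y ^ kk i * T * (Y ^ kk i)⁻¹

theorem cyT_conj {Y T : GL ι F} (hY : Y ^ 7 = 1) (i : Fin 7) : Y * cyT Y T i * Y⁻¹ = cyT Y T (yp i) := by
  unfold cyT
  have h : Y ^ kk (yp i) = Y * Y ^ kk i := by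
    rw [← kk_yp, ← pow_succ']
    conv_rhs => rw [← Nat.mod_add_div (kk i + 1) 7, pow_add, pow_mul, hY, one_pow, mul_one]
  rw [h]
  group

theorem cyT_lf {Y T : GL ι F} (hY : Lf m ρ Y ya) (hT : Lf m ρ T (tr (pt 0))) (i : Fin 7) :
    Lf m ρ (cyT Y T i) (tr (pt i)) := by
  have h := lf_conj (lf_pow hY (kk i)) hT
  rw [act_ya_pow, kk_iter] at h
  exact h

theorem cyT_neg (Y T : GL ι F) (i : Fin 7) : cyT Y (-T) i = -cyT Y T i := by
  unfold cyT
  rw [mul_neg, neg_mul]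

theorem exists_sys (h2 : (2 : F) ≠ 0) (hQ : IsNondegenerateQuadraticForm Qf) (hι : 0 < Fintype.card ι)
    {T0 : Fin 7 → GL ι F} (hT0 : ∀ i, Lf m ρ (T0 i) (tr (pt i))) (hc : T0 0 * T0 1 = T0 1 * T0 0) :
    ∃ T Y, Sys m ρ T Y := by
  have h01 : (1 : Fin 7) ≠ 0 := by decide
  -- all lifts commute
  have hcomm : ∀ {T : Fin 7 → GL ι F}, (∀ i, Lf m ρ (T i) (tr (pt i))) → ∀ i j, T i * T j = T j * T i := by
    intro T hT i j
    by_cases hij : i = j
    · rw [hij]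
    · exact comm_const hQ hι (pt_ne 0) (pt_ne 1) (fun h => h01 (pt_inj h)) (om_pt 0 1) (pt_ne i) (pt_ne j)
        (fun h => hij (pt_inj h).symm) (om_pt i j) (hT0 0) (hT0 1) (hT i) (hT j) hc
  -- all lifts are involutions
  have hsq : ∀ {T : Fin 7 → GL ι F}, (∀ i, Lf m ρ (T i) (tr (pt i))) → ∀ i, T i * T i = 1 := by
    intro T hT i
    refine (lf_sq hQ hι (hT i)).resolve_right fun h => ?_
    have hs : ∀ j, T j * T j = -1 := fun j => by rw [sq_const hQ hι (pt_ne i) (pt_ne j) (hT i) (hT j), h]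
    have hc' := hcomm hT
    have hcm : ∀ {P c : GL ι F}, P * c = c * P → (P * c) * (P * c) = P * P * (c * c) := by
      intro P c h
      calc (P * c) * (P * c) = P * (c * P) * c := by group
        _ = P * (P * c) * c := by rw [h]
        _ = P * P * (c * c) := by group
    have hcc : ∀ {P a c : GL ι F}, a * c = c * a → P * c = c * P → (P * a) * c = c * (P * a) := by
      intro P a c h1 h3
      calc (P * a) * c = P * (a * c) := by group
        _ = (P * c) * a := by rw [h1]; group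
        _ = c * (P * a) := by rw [h3]; group
    have e2 : (T 6 * T 2) * (T 6 * T 2) = 1 := by rw [hcm (hc' 6 2), hs, hs]; simp
    have e3 : (T 6 * T 2 * T 4) * (T 6 * T 2 * T 4) = -1 := by
      rw [hcm (hcc (hc' 2 4) (hc' 6 4)), e2, hs, one_mul]
    have e4 : (T 6 * T 2 * T 4 * T 5) * (T 6 * T 2 * T 4 * T 5) = 1 := by
      rw [hcm (hcc (hc' 4 5) (hcc (hc' 2 5) (hc' 6 5))), e3, hs]; simp
    have e5 : (T 6 * T 2 * T 4 * T 5 * T 0) * (T 6 * T 2 * T 4 * T 5 * T 0) = -1 := by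
      rw [hcm (hcc (hc' 5 0) (hcc (hc' 4 0) (hcc (hc' 2 0) (hc' 6 0)))), e4, hs, one_mul]
    have e6 : (T 6 * T 2 * T 4 * T 5 * T 0 * T 1) * (T 6 * T 2 * T 4 * T 5 * T 0 * T 1) = 1 := by
      rw [hcm (hcc (hc' 0 1) (hcc (hc' 5 1) (hcc (hc' 4 1) (hcc (hc' 2 1) (hc' 6 1))))), e5, hs]; simp
    have e7 : (T 6 * T 2 * T 4 * T 5 * T 0 * T 1 * T 3) * (T 6 * T 2 * T 4 * T 5 * T 0 * T 1 * T 3) = -1 := by
      rw [hcm (hcc (hc' 1 3) (hcc (hc' 0 3) (hcc (hc' 5 3) (hcc (hc' 4 3) (hcc (hc' 2 3) (hc' 6 3)))))), e6, hs, one_mul]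
    have h4 := lf_one_pm hQ hι (lf_fano hT)
    have h5 : T 6 * (T 2 * (T 4 * (T 5 * (T 0 * (T 1 * T 3))))) = T 6 * T 2 * T 4 * T 5 * T 0 * T 1 * T 3 := by
      simp only [mul_assoc]
    rw [h5] at h4
    apply one_ne_neg (ι := ι) h2 hι
    rcases h4 with h4 | h4
    · rw [h4, one_mul] at e7
      exact e7
    · rw [h4, neg_mul_neg, one_mul] at e7
      exact e7
  obtain ⟨Y, hY, hY7⟩ := exists_Y (m := m) (ρ := ρ) hQ hι
  have hl := cyT_lf hY (hT0 0)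
  rcases lf_one_pm hQ hι (lf_fano hl) with h4 | h4
  · exact ⟨cyT Y (T0 0), Y, hl, hcomm hl, hsq hl, cyT_conj hY7, hY7, hY, h4⟩
  · have hneg : (-1 : GL ι F) ∈ omegaGL Qf := by
      rw [← h4]
      exact (lf_fano hl).1
    have hT' : Lf m ρ (-(T0 0)) (tr (pt 0)) := by
      apply lf_neg_of (hT0 0)
      have := mul_mem hneg (hT0 0).1
      rwa [neg_one_mul] at this
    have hl' := cyT_lf hY hT'
    refine ⟨cyT Y (-(T0 0)), Y, hl', hcomm hl', hsq hl', cyT_conj hY7, hY7, hY, ?_⟩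
    simp only [cyT_neg, neg_mul, mul_neg, neg_neg]
    rw [h4, neg_neg]

end lift

end Cfsg.Agent.H901.OP
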