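import Cfsg.Agent.H901.OP.Sys

/-!
# S3499, `Sp₆(2)` in `Ω₈⁺(q)`: the weights in the commuting case (helper901)
-/

set_option autoImplicit false
set_option linter.unusedSectionVars false

namespace Cfsg.Agent.H901.OP

open Cfsg Cfsg.Geo Matrix Cfsg.Agent.SporRec.TwoSp6.Sp Cfsg.Agent.H284 Cfsg.Agent.H419.EP Cfsg.Agent.H84.EP
open scoped MatrixGroups

/-- `μ` is trivial or a shift of `ε` -/
def inW (ε μ : Fin 7 → Bool) : Prop := (∀ i, μ i = false) ∨ ∃ j : Fin 7, ∀ i, μ i = ε (yp^[j.val] i)

instance (ε μ : Fin 7 → Bool) : Decidable (inW ε μ) := by unfold inW; infer_instance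

/-- the twisted images of the shifts are weights -/
def CW (ε : Fin 7 → Bool) (k : Fin 3) (ν : Fin 7 → Bool) : Prop :=
  ∀ j : Fin 7, inW ε (fun i => xor (ν i) (ε (yp^[j.val] (gp k i))))

instance (ε : Fin 7 → Bool) (k : Fin 3) (ν : Fin 7 → Bool) : Decidable (CW ε k ν) := by unfold CW; infer_instance

set_option maxRecDepth 100000 in
theorem comb6 : ∀ ε : Fin 7 → Bool, ε 0 = true → par ε = false →
    (∀ k : Fin 3, CW ε k (fun _ => false) ∨ ∃ j0 : Fin 7, CW ε k (fun i => ε (yp^[j0.val] i))) →
    (∃ i0, ∀ i, ε i = !decide (i = i0)) ∨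
      ∀ j : Fin 7, xor (ε (yp^[j.val] 0)) (xor (ε (yp^[j.val] 1)) (ε (yp^[j.val] 2))) = false := by
  decide +kernel

theorem par_const {μ : Fin 7 → Bool} (h : ∀ i, μ (yp i) = μ i) (hp : par μ = false) : ∀ i, μ i = false := by
  have h1 : ∀ n, μ (yp^[n] 0) = μ 0 := by
    intro n
    induction n with
    | zero => rfl
    | succ n ih => rw [Function.iterate_succ_apply', h, ih]
  have h2 : ∀ i, μ i = μ 0 := by
    intro i
    have := h1 (kk i)
    rwa [kk_iter] at this
  intro i
  rw [h2]
  unfold par at hp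
  rw [h2 1, h2 2, h2 3, h2 4, h2 5, h2 6] at hp
  revert hp
  cases μ 0 <;> decide

section wt
variable {F : Type*} [Field F] {ι : Type} [Fintype ι] [DecidableEq ι]

/-- `v` has weight `ε` -/
def WT (T : Fin 7 → GL ι F) (ε : Fin 7 → Bool) (v : ι → F) : Prop := ∀ i, av (T i) v = sg F (ε i) • v

variable {T : Fin 7 → GL ι F}

/-- joint eigenvectors outside a subspace -/
theorem exists_joint (h2 : (2 : F) ≠ 0) (hc : ∀ i j, T i * T j = T j * T i) (hs : ∀ i, T i * T i = 1)
    (M : Submodule F (ι → F)) {v : ι → F} (hv : v ∉ M) :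
    ∃ w, w ∉ M ∧ (∃ ε, WT T ε w) ∧ ∀ j b, av (T j) v = sg F b • v → av (T j) w = sg F b • w := by
  have key : ∀ s : Finset (Fin 7), ∃ w, w ∉ M ∧ (∀ i ∈ s, ∃ b, av (T i) w = sg F b • w) ∧
      ∀ j b, av (T j) v = sg F b • v → av (T j) w = sg F b • w := by
    intro s
    induction s using Finset.induction_on with
    | empty => exact ⟨v, hv, by simp, fun j b h => h⟩
    | insert k s _ ih =>
      obtain ⟨w, hw, hw1, hw2⟩ := ih
      have hTT : av (T k) (av (T k) w) = w := by rw [← av_mul, hs, av_one]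
      have pres : ∀ c : F, ∀ i b, av (T i) w = sg F b • w →
          av (T i) (w + c • av (T k) w) = sg F b • (w + c • av (T k) w) := by
        intro c i b h
        rw [av_add, av_smul, h, ← av_mul, hc, av_mul, h, av_smul]
        module
      have fin : ∀ b0 : Bool, w + sg F b0 • av (T k) w ∉ M → ∃ w, w ∉ M ∧
          (∀ i ∈ insert k s, ∃ b, av (T i) w = sg F b • w) ∧ ∀ j b, av (T j) v = sg F b • v → av (T j) w = sg F b • w := by
        intro b0 hb
        refine ⟨_, hb, ?_, ?_⟩
        · intro i hi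
          rcases Finset.mem_insert.1 hi with rfl | hi
          · refine ⟨b0, ?_⟩
            rw [av_add, av_smul, hTT, smul_add, smul_smul, sg_mul_self, one_smul, add_comm]
          · obtain ⟨b, hb'⟩ := hw1 i hi
            exact ⟨b, pres _ i b hb'⟩
        · intro j b h
          exact pres _ j b (hw2 j b h)
      by_cases h1 : w + sg F false • av (T k) w ∈ M
      · apply fin true
        intro h3
        apply hw
        have h4 := M.add_mem h1 h3
        have h5 : w + sg F false • av (T k) w + (w + sg F true • av (T k) w) = (2 : F) • w := by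
          simp only [sg, Bool.false_eq_true, if_false, if_true]
          module
        rw [h5] at h4
        have h6 := M.smul_mem (2 : F)⁻¹ h4
        rwa [smul_smul, inv_mul_cancel₀ h2, one_smul] at h6
      · exact fin false h1
  obtain ⟨w, hw, h1, h3⟩ := key Finset.univ
  choose! ε hε using h1
  exact ⟨w, hw, ⟨ε, fun i => hε i (Finset.mem_univ i)⟩, h3⟩

theorem wt_par' (h2 : (2 : F) ≠ 0) (hp : T 6 * (T 2 * (T 4 * (T 5 * (T 0 * (T 1 * T 3))))) = 1) {ε : Fin 7 → Bool}
    {v : ι → F} (hv : v ≠ 0) (h : WT T ε v) : par ε = false := by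
  have h1 := congrArg (fun g => av g v) hp
  have h3 : av (T 6 * (T 2 * (T 4 * (T 5 * (T 0 * (T 1 * T 3)))))) v = sg F (par ε) • v := by
    simp only [av_mul, h _, av_smul, smul_smul]
    congr 1
    unfold par
    simp only [sg_xor]
    ring
  simp only [h3, av_one] at h1
  have h4 : sg F (par ε) = 1 := by
    have : (sg F (par ε) - 1) • v = 0 := by rw [sub_smul, h1, one_smul, sub_self]
    rcases smul_eq_zero.1 this with h5 | h5
    · exact sub_eq_zero.1 h5
    · exact absurd h5 hv
  exact sg_inj h2 (b := false) (by rw [h4]; simp [sg])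

variable (T) in
/-- the projections -/
def pj (ε : Fin 7 → Bool) : Matrix ι ι F :=
  ((List.finRange 7).map fun i => 1 + sg F (ε i) • ((T i : GL ι F) : Matrix ι ι F)).prod

theorem pj_wt (ε : Fin 7 → Bool) {μ : Fin 7 → Bool} {u : ι → F} (h : WT T μ u) :
    pj T ε *ᵥ u = ((List.finRange 7).map fun i => 1 + sg F (ε i) * sg F (μ i)).prod • u := by
  unfold pj
  generalize List.finRange 7 = l
  induction l with
  | nil => simp
  | cons a l ih =>
    rw [List.map_cons, List.prod_cons, List.map_cons, List.prod_cons, ← Matrix.mulVec_mulVec, ih, Matrix.mulVec_smul,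
      Matrix.add_mulVec, Matrix.one_mulVec, Matrix.smul_mulVec]
    have h1 : ((T a : GL ι F) : Matrix ι ι F) *ᵥ u = sg F (μ a) • u := h a
    rw [h1]
    module

theorem pj_self {ε : Fin 7 → Bool} {u : ι → F} (h : WT T ε u) : pj T ε *ᵥ u = (2 ^ 7 : F) • u := by
  rw [pj_wt ε h]
  congr 1
  have : (fun i : Fin 7 => 1 + sg F (ε i) * sg F (ε i)) = fun _ => (2 : F) := by
    funext i
    rw [sg_mul_self]
    norm_num
  rw [this]
  simp
  ring

theorem pj_ne {ε μ : Fin 7 → Bool} {u : ι → F} (h : WT T μ u) (hne : ε ≠ μ) : pj T ε *ᵥ u = 0 := by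
  rw [pj_wt ε h]
  obtain ⟨i, hi⟩ := Function.ne_iff.1 hne
  have h1 : ((List.finRange 7).map fun i => 1 + sg F (ε i) * sg F (μ i)).prod = 0 := by
    rw [List.prod_eq_zero_iff, List.mem_map]
    exact ⟨i, List.mem_finRange i, by rw [sg_mul_ne hi, add_neg_cancel]⟩
  rw [h1, zero_smul]

/-- vectors of distinct weights are independent -/
theorem li_of_WT (h2 : (2 : F) ≠ 0) {κ : Type*} [Fintype κ] {u : κ → (ι → F)} {μ : κ → Fin 7 → Bool} (hu : ∀ j, u j ≠ 0)
    (hw : ∀ j, WT T (μ j) (u j)) (hμ : Function.Injective μ) : LinearIndependent F u := by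
  rw [Fintype.linearIndependent_iff]
  intro c hc j
  have h1 := congrArg (fun w => pj T (μ j) *ᵥ w) hc
  simp only [Matrix.mulVec_zero] at h1
  rw [Matrix.mulVec_sum, Finset.sum_eq_single j] at h1
  · rw [Matrix.mulVec_smul, pj_self (hw j), smul_smul] at h1
    rcases smul_eq_zero.1 h1 with h3 | h3
    · rcases mul_eq_zero.1 h3 with h4 | h4
      · exact h4
      · exact absurd h4 (pow_ne_zero _ h2)
    · exact absurd h3 (hu j)
  · intro k _ hk
    rw [Matrix.mulVec_smul, pj_ne (hw k) (fun h => hk (hμ h).symm), smul_zero]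
  · intro h
    exact absurd (Finset.mem_univ j) h

variable {Qf : (ι → F) → F}

theorem polar_wt (hQ : IsNondegenerateQuadraticForm Qf) (hT : ∀ i, T i ∈ isometryGroup F Qf) {ε μ : Fin 7 → Bool}
    {u w : ι → F} (hu : WT T ε u) (hw : WT T μ w) (h2 : (2 : F) ≠ 0) (h : QuadraticMap.polar Qf u w ≠ 0) : ε = μ := by
  by_contra hne
  obtain ⟨i, hi⟩ := Function.ne_iff.1 hne
  have h1 := polar_av (hT i) u w
  rw [hu i, hw i, hQ.polar_bilinear.smul_left, hQ.polar_bilinear.smul_right, ← mul_assoc, sg_mul_ne hi] at h1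
  have h3 : (2 : F) * QuadraticMap.polar Qf u w = 0 := by linear_combination -h1
  exact h ((mul_eq_zero.1 h3).resolve_left h2)

/-- the polar form as a bilinear form -/
def bl (hQ : IsNondegenerateQuadraticForm Qf) : LinearMap.BilinForm F (ι → F) :=
  LinearMap.mk₂ F (QuadraticMap.polar Qf) hQ.polar_bilinear.add_left
    (fun c x y => by rw [hQ.polar_bilinear.smul_left, smul_eq_mul])
    (fun x y z => hQ.polar_bilinear.add_right x y z)
    (fun c x y => by rw [hQ.polar_bilinear.smul_right, smul_eq_mul])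

theorem bl_apply (hQ : IsNondegenerateQuadraticForm Qf) (u v : ι → F) : bl hQ u v = QuadraticMap.polar Qf u v := rfl

/-- the orthogonal complement of seven independent vectors in dimension 8 -/
theorem exists_perp (hQ : IsNondegenerateQuadraticForm Qf) (hι : Fintype.card ι = 8) {u : Fin 7 → (ι → F)}
    (hu : LinearIndependent F u) :
    ∃ z, z ≠ 0 ∧ (∀ j, QuadraticMap.polar Qf z (u j) = 0) ∧
      ∀ v, (∀ j, QuadraticMap.polar Qf v (u j) = 0) → ∃ b : F, v = b • z := by
  have hsymm : ∀ x y, bl hQ x y = bl hQ y x := fun x y => polar_symm x y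
  have hnd : (bl hQ).Nondegenerate := by
    constructor
    · intro x hx
      by_contra hne
      obtain ⟨-, y, hy⟩ := hQ.nondegenerate x hne
      exact hy (hx y)
    · intro x hx
      by_contra hne
      obtain ⟨-, y, hy⟩ := hQ.nondegenerate x hne
      apply hy
      have := hx y
      rw [hsymm] at this
      exact this
  have hrefl : (bl hQ).IsRefl := fun x y h => by rw [hsymm]; exact h
  have h1 := LinearMap.BilinForm.finrank_orthogonal hnd (Submodule.span F (Set.range u))
  rw [finrank_span_eq_card hu, Module.finrank_fintype_fun_eq_card, hι, Fintype.card_fin] at h1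
  obtain ⟨z, hz, hz'⟩ := finrank_eq_one_iff'.1 h1
  have hmem : ∀ v, (∀ j, QuadraticMap.polar Qf v (u j) = 0) →
      v ∈ (bl hQ).orthogonal (Submodule.span F (Set.range u)) := by
    intro v hv
    rw [LinearMap.BilinForm.mem_orthogonal_iff]
    intro n hn
    induction hn using Submodule.span_induction with
    | mem x hx =>
      obtain ⟨j, rfl⟩ := hx
      show bl hQ (u j) v = 0
      rw [hsymm]
      exact hv j
    | zero => show bl hQ 0 v = 0; simp
    | add x y _ _ h1 h2 =>
      show bl hQ (x + y) v = 0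
      have h1' : bl hQ x v = 0 := h1
      have h2' : bl hQ y v = 0 := h2
      rw [map_add, LinearMap.add_apply, h1', h2', add_zero]
    | smul c x _ h1 =>
      show bl hQ (c • x) v = 0
      have h1' : bl hQ x v = 0 := h1
      rw [map_smul, LinearMap.smul_apply, h1', smul_zero]
  refine ⟨z.1, fun h => hz (Subtype.ext h), ?_, ?_⟩
  · intro j
    have h3 := LinearMap.BilinForm.mem_orthogonal_iff.1 z.2 (u j) (Submodule.subset_span ⟨j, rfl⟩)
    have h4 : bl hQ (u j) z.1 = 0 := h3
    rw [hsymm] at h4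
    exact h4
  · intro v hv
    obtain ⟨c, hc⟩ := hz' ⟨v, hmem v hv⟩
    exact ⟨c, (congrArg Subtype.val hc).symm⟩

end wt

end Cfsg.Agent.H901.OP
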